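import Cfsg.Agent.SporRec.LyG2.G14
import Cfsg.Agent.SporRec.LyG2.LyEmb
import Cfsg.Agent.Ly.IndexEq
import Cfsg.Agent.TypeM.OutLyFin
import Cfsg.Agent.H68.MeetBase
import Cfsg.Agent.H132.S5.Main

/-!
# S2274: the strong row of the Lyons group at 5 (helper164, task 3626)

`G₂(5)` has index 8835156 in `Ly`; its strong row is given by `SBelow`.
-/

set_option autoImplicit false
set_option maxRecDepth 100000

universe u

namespace Cfsg.Agent.H164.SRowLy

open Cfsg Cfsg.Agent.H533.T5 Cfsg.Agent.H132.S5 Cfsg.Agent.SporRec.LyG2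

theorem index_H : LyEmb.H.index = 8835156 := Cfsg.Agent.Ly.IndexEq.index_abcd

/-- **The strong row of `Ly` at 5.** -/
theorem srow_ly : SRowFam.{u} 5 (fun K _ => Spor.IsoLy K) := by
  intro K _ _ _ hna h hlt
  obtain ⟨e⟩ := h
  have : Fact (Nat.Prime 5) := ⟨by norm_num⟩
  have hfin := Cfsg.Agent.Ly.Setup.finite_ly
  have hsH := LyEmb.isSimpleGroup_H
  have hfH : Finite LyEmb.H := inferInstance
  have hnaH : ¬ IsMulCommutative LyEmb.H := by
    refine Cfsg.Agent.H68.MeetB.not_comm_of_card ?_
    rw [LyEmb.card_H]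
    norm_num
  let T : Subgroup K := LyEmb.H.comap e.toMonoidHom
  have hmap : T.map e.toMonoidHom = LyEmb.H := Subgroup.map_comap_eq_self_of_surjective e.surjective _
  let eT : T ≃* LyEmb.H := (e.subgroupMap T).trans (MulEquiv.subgroupCongr hmap)
  have hsT : IsSimpleGroup T := by
    have : Nontrivial T := eT.toEquiv.nontrivial
    exact IsSimpleGroup.isSimpleGroup_of_surjective eT.symm.toMonoidHom eT.symm.surjective
  have hnaT : ¬ IsMulCommutative T := by
    intro hc
    refine hnaH ⟨⟨fun a b => eT.symm.injective ?_⟩⟩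
    rw [map_mul, map_mul]
    exact hc.is_comm.comm _ _
  have hTi : T.index = 8835156 := by
    rw [Subgroup.index_comap_of_surjective _ e.surjective, index_H]
  have hlt' : Nat.card T < Nat.card K := by
    have h1 := T.card_mul_index
    rw [hTi] at h1
    have h2 : 0 < Nat.card T := Nat.card_pos
    omega
  have hrow : SRow 5 T := hlt T hsT hnaT hlt'
  refine SRow.of_inner hna (fun a _ => ?_) fun x y hx hy => ?_
  · obtain ⟨g, hg⟩ := Cfsg.Agent.TypeM.OutLyFin.inner_ly (MulAut.congr e a)
    refine ⟨e.symm g, ?_⟩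
    ext x
    have h1 : MulAut.conj g (e x) = (MulAut.congr e a) (e x) := by rw [hg]
    have h2 : (MulAut.congr e a) (e x) = e (a x) := by simp [MulAut.congr]
    rw [h2] at h1
    apply e.injective
    rw [← h1]
    simp [MulAut.conj_apply]
  · refine spair_of_index hnaT hrow T ?_ (MulEquiv.refl _) hx hy
    rw [hTi]
    norm_num

end Cfsg.Agent.H164.SRowLy
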